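import Cfsg.Agent.H363.UN.Frame
import Cfsg.Agent.H363.UN.ModFrob
import Cfsg.Agent.H403.HermElt
import Cfsg.Agent.S0283

/-!
# Elements of order `r_{2N}(q)` of `PSU_n(q)` have fixed vectors in coprime characteristic (helper363, for helper343)
-/

set_option autoImplicit false
set_option linter.unusedSectionVars false

namespace Cfsg.Agent.H363.UN

open Matrix Cfsg Cfsg.Agent.LieClassical.HermBasic

section

variable {F : Type*} [Field F] [Fintype F] {q N : ℕ}

/-- an element of order `r` of `SL_N(q ^ 2)` which is not a scalar -/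
theorem exists_elt (hF : Fintype.card F = q ^ 2) (hN : 1 ≤ N) {r : ℕ} (hr : r.Prime) (h1 : r ∣ (q ^ 2) ^ N - 1)
    (h2 : ¬ r ∣ q ^ 2 - 1) : ∃ A : GLq F q N, A ^ r = 1 ∧
      ¬ ∃ c : F, ((A : GL (Fin N) F) : Matrix (Fin N) (Fin N) F) = c • 1 := by
  obtain ⟨M, hM⟩ := H403.exists_mat_lin hF hN h1
  have hMr : M ^ r = 1 := by rw [← hM]; exact pow_orderOf_eq_one M
  have hunit : IsUnit M := IsUnit.of_pow_eq_one hMr hr.ne_zero
  set A : GL (Fin N) F := hunit.unit with hA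
  have hAM : (A : Matrix (Fin N) (Fin N) F) = M := rfl
  have hcop : Nat.Coprime r (q ^ 2 - 1) := (Nat.Prime.coprime_iff_not_dvd hr).2 h2
  have heq : ∀ c : F, c ^ r = 1 → c = 1 := by
    intro c hc
    have hc0 : c ≠ 0 := by
      rintro rfl
      rw [zero_pow hr.ne_zero] at hc
      exact zero_ne_one hc
    have h3 : c ^ (q ^ 2 - 1) = 1 := by rw [← hF]; exact FiniteField.pow_card_sub_one_eq_one _ hc0
    have h4 := pow_gcd_eq_one.2 ⟨hc, h3⟩
    rwa [hcop.gcd_eq_one, pow_one] at h4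
  have hdet : M.det = 1 := by
    apply heq
    rw [← Matrix.det_pow, hMr, Matrix.det_one]
  refine ⟨⟨A, by rw [mem_GLq, hAM, hdet, one_pow]⟩, ?_, ?_⟩
  · apply Subtype.ext
    apply Units.ext
    show ((A ^ r : GL (Fin N) F) : Matrix (Fin N) (Fin N) F) = 1
    rw [Units.val_pow_eq_pow_val, hAM, hMr]
  · rintro ⟨c, hc⟩
    have hc' : M = c • 1 := hc
    have h3 : c ^ r = 1 := by
      rw [hc', smul_pow, one_pow] at hMr
      have := congrFun (congrFun hMr ⟨0, hN⟩) ⟨0, hN⟩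
      simpa using this
    rw [heq c h3, one_smul] at hc'
    rw [hc', orderOf_one] at hM
    exact hr.one_lt.ne hM

/-- **Fixed vectors.** -/
theorem exists_fixed_psu {n r : ℕ} (hF : Fintype.card F = q ^ 2) (hN : 2 ≤ N) (hn : 2 * N ≤ n)
    (hr : r.Prime) (hi : orderOf (((-(q : ℤ)) : ℤ) : ZMod r) = 2 * N) {w : ℕ} (hw : w.Prime) (hwq : ¬ w ∣ q)
    {V : Type*} [AddCommGroup V] [Finite V] [Nontrivial V] (hV : ∀ v : V, w • v = 0)
    (φ : Cfsg.PSU n F q →* AddMonoid.End V) :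
    ∃ x : Cfsg.PSU n F q, orderOf x = r ∧ ∃ v : V, v ≠ 0 ∧ φ x v = v := by
  have hrf := Fact.mk hr
  have hq2 : 2 ≤ q := two_le hF
  -- arithmetic
  have hpow : ((q : ℕ) : ZMod r) ^ (2 * N) = 1 := by
    have h1 := pow_orderOf_eq_one (((-(q : ℤ)) : ℤ) : ZMod r)
    rw [hi] at h1
    push_cast at h1
    rw [pow_mul, neg_sq, ← pow_mul] at h1
    exact h1
  have h1 : r ∣ (q ^ 2) ^ N - 1 := by
    rw [← pow_mul, ← ZMod.natCast_eq_zero_iff, Nat.cast_sub (Nat.one_le_pow _ _ (by omega)), Nat.cast_pow, Nat.cast_one,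
      sub_eq_zero]
    exact hpow
  have h2 : ¬ r ∣ q ^ 2 - 1 := by
    intro h
    rw [← ZMod.natCast_eq_zero_iff, Nat.cast_sub (Nat.one_le_pow _ _ (by omega)), Nat.cast_pow, Nat.cast_one,
      sub_eq_zero] at h
    have h3 : (((-(q : ℤ)) : ℤ) : ZMod r) ^ 2 = 1 := by
      push_cast
      rw [neg_sq]
      exact h
    have h4 := Nat.le_of_dvd (by norm_num) (orderOf_dvd_of_pow_eq_one h3)
    rw [hi] at h4
    omega
  have hrq : ¬ r ∣ q := by
    intro h
    rw [← ZMod.natCast_eq_zero_iff] at h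
    rw [h, zero_pow (by omega)] at hpow
    exact zero_ne_one hpow
  obtain ⟨A, hAr, hAs⟩ := exists_elt (F := F) hF (by omega : 1 ≤ N) hr h1 h2
  obtain ⟨ψ, hψ⟩ := exists_hom (F := F) (N := N) hF hn (by omega)
  have hsimple : IsSimpleGroup (Cfsg.PSU n F q) := S0283.result hF n (by omega) (by rintro ⟨h, -⟩; omega)
  set c := ψ (gg hF N A) with hc
  have hc1 : c ≠ 1 := by
    intro h
    obtain ⟨b, -, hb⟩ := hψ _ h
    rw [mt_gg] at hb
    exact hAs ⟨b, (smul_blocks hb).1⟩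
  have hord : orderOf c = r := by
    apply orderOf_eq_prime _ hc1
    rw [hc, ← map_pow, ← map_pow, hAr, map_one, map_one]
  -- the unipotent radical
  obtain ⟨p, k, hp, hchar, hqp, hk⟩ := exists_prime_pow (F := F) hF
  have hpf := Fact.mk hp
  set U := (ψ.comp (uu hF N)).range with hU
  have hUp : IsPGroup p U := by
    rintro ⟨_, ⟨v, rfl⟩⟩
    refine ⟨1, ?_⟩
    apply Subtype.ext
    rw [pow_one]
    show ((ψ.comp (uu hF N)) v) ^ p = 1
    rw [← map_pow]
    have h1 : v ^ p = 1 := by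
      apply Multiplicative.toAdd.injective
      rw [toAdd_pow, toAdd_one]
      apply Subtype.ext
      ext i j
      show (p • (v.toAdd : Matrix (Fin N) (Fin N) F)) i j = 0
      rw [Matrix.smul_apply, nsmul_eq_mul, CharP.cast_eq_zero, zero_mul]
    rw [h1, map_one]
  have hUcard : ∀ s : ℕ, s.Prime → ¬ s ∣ q → (Nat.card U).Coprime s := by
    intro s hs hsq
    obtain ⟨b, hb⟩ := IsPGroup.iff_card.1 hUp
    rw [hb]
    refine Nat.Coprime.pow_left _ ((Nat.coprime_primes hp hs).2 ?_)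
    rintro rfl
    exact hsq (by rw [hqp]; exact dvd_pow_self p (by omega))
  refine ⟨c, hord, exists_fixed hV φ U ?_ (hUcard w hw hwq) hr hord (hUcard r hr hrq) ?_ ?_⟩
  · rintro _ ⟨a, rfl⟩ _ ⟨b, rfl⟩
    rw [← map_mul, ← map_mul, mul_comm]
  · rintro _ ⟨v, rfl⟩
    obtain ⟨T, -, hT⟩ := gg_uu A v.toAdd
    refine ⟨Multiplicative.ofAdd T, ?_⟩
    rw [MonoidHom.comp_apply, MonoidHom.comp_apply, eq_mul_inv_iff_mul_eq, hc, ← map_mul, ← map_mul]
    congr 1
    exact hT.symm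
  · by_contra hcon
    push Not at hcon
    apply hAs
    refine scalar_of_fixed (hF := hF) (by omega) fun S hS => ?_
    obtain ⟨T, hT, hT'⟩ := gg_uu A (⟨S, hS⟩ : skw hF N)
    have h3 := hcon _ ⟨Multiplicative.ofAdd ⟨S, hS⟩, rfl⟩
    rw [MonoidHom.comp_apply, hc, ← map_mul, ← map_mul, hT', map_mul, map_mul, mul_left_inj] at h3
    have h4 : ψ (uu hF N (Multiplicative.ofAdd (T - ⟨S, hS⟩))) = 1 := by
      rw [ofAdd_sub, map_div, map_div, h3, div_self']
    obtain ⟨b, -, hb⟩ := hψ _ h4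
    rw [mt_uu] at hb
    have h5 := (smul_blocks hb).2.1
    have h6 : (T : Matrix (Fin N) (Fin N) F) - S = 0 := h5
    rw [← hT]
    exact sub_eq_zero.1 h6

end

end Cfsg.Agent.H363.UN
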